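import Cfsg.Agent.H40.InducedBlocks
import Cfsg.Agent.H40.CharCongr
import Cfsg.Agent.H40.BlockDefect
import Cfsg.Agent.H42.Central

/-!
# Blocks of groups in which every element of `p'`-class size is central times a `p`-element
-/

set_option autoImplicit false

namespace Cfsg.Agent.H69.CentralBlocks

open Cfsg.Agent.H41 (localRing res)

variable {G : Type*} [Group G] [Finite G] {p : ℕ} [Fact p.Prime] {M : Ideal Cfsg.AlgInt}
  [M.IsMaximal]

/-- Characters of degree prime to `p` with the same central character on the centre share a block. -/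
theorem sameBlock_of_central (hM : Cfsg.IsPModular p M) {χ ψ : Cfsg.IrrCharacter G}
    (hχ : ¬ p ∣ Cfsg.charDegree (χ : G → ℂ)) (hψ : ¬ p ∣ Cfsg.charDegree (ψ : G → ℂ))
    (hcent : ∀ z ∈ Subgroup.center G,
      (χ : G → ℂ) z / (χ : G → ℂ) 1 = (ψ : G → ℂ) z / (ψ : G → ℂ) 1)
    (hS : ∀ g : G, ¬ p ∣ (Subgroup.centralizer ({g} : Set G)).index →
      ∃ z ∈ Subgroup.center G, ∃ u : G, u * z = g ∧ ∃ j, orderOf u = p ^ j) :
    Cfsg.SameBlock M (χ : G → ℂ) (ψ : G → ℂ) := by
  intro g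
  have key : ∀ θ : Cfsg.IrrCharacter G, ¬ p ∣ Cfsg.charDegree (θ : G → ℂ) →
      ∀ z u : G, Commute u z → u * z = g → ∀ j, orderOf u = p ^ j →
      Cfsg.MemLocalIdeal M (Cfsg.centralChar (θ : G → ℂ) g -
        ((Subgroup.centralizer ({g} : Set G)).index : ℂ) *
          ((θ : G → ℂ) z / (θ : G → ℂ) 1)) := by
    intro θ hθ z u hc he j hj
    have h1 := H40.memLocalIdeal_char_mul_sub hM (H26.irr_isCharacter θ) hc hj
    rw [he] at h1
    have hinv : ((Subgroup.centralizer ({g} : Set G)).index : ℂ) *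
        ((Cfsg.charDegree (θ : G → ℂ) : ℂ))⁻¹ ∈ localRing M :=
      mul_mem (natCast_mem _ _) (H41.IsPModular.inv_natCast_mem hM hθ)
    have := H40.memLocalIdeal_mul_left hinv h1
    rw [Cfsg.centralChar, H42.irr_one_eq]
    convert this using 1
    ring
  have hsub : ∀ {a b c : ℂ}, Cfsg.MemLocalIdeal M (a - c) → Cfsg.MemLocalIdeal M (b - c) →
      Cfsg.MemLocalIdeal M (a - b) := by
    intro a b c ha hb
    obtain ⟨h1, e1⟩ := H41.memLocalIdeal_iff_res.1 ha
    obtain ⟨h2, e2⟩ := H41.memLocalIdeal_iff_res.1 hb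
    refine H41.memLocalIdeal_iff_res.2 ⟨by simpa using sub_mem h1 h2, ?_⟩
    have : (⟨a - b, by simpa using sub_mem h1 h2⟩ : localRing M) = ⟨a - c, h1⟩ - ⟨b - c, h2⟩ :=
      Subtype.ext (by simp)
    rw [this, map_sub, e1, e2, sub_zero]
  by_cases hg : p ∣ (Subgroup.centralizer ({g} : Set G)).index
  · have hzero : ∀ θ : Cfsg.IrrCharacter G, ¬ p ∣ Cfsg.charDegree (θ : G → ℂ) →
        Cfsg.MemLocalIdeal M (Cfsg.centralChar (θ : G → ℂ) g - 0) := by
      intro θ hθ
      have hi : Cfsg.MemLocalIdeal M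
          (((Subgroup.centralizer ({g} : Set G)).index : ℕ) : ℂ) := by
        refine H41.memLocalIdeal_iff_res.2 ⟨natCast_mem _ _, ?_⟩
        rw [show (⟨(((Subgroup.centralizer ({g} : Set G)).index : ℕ) : ℂ), natCast_mem _ _⟩ :
          localRing M) = ((Subgroup.centralizer ({g} : Set G)).index : ℕ) from Subtype.ext rfl,
          map_natCast]
        exact (H41.IsPModular.natCast_eq_zero_iff hM _).2 hg
      have := H40.memLocalIdeal_mul_left (mul_mem (H40.irr_mem_localRing θ g)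
        (H41.IsPModular.inv_natCast_mem hM hθ)) hi
      rw [Cfsg.centralChar, H42.irr_one_eq]
      convert this using 1
      ring
    exact hsub (hzero χ hχ) (hzero ψ hψ)
  · obtain ⟨z, hz, u, he, j, hj⟩ := hS g hg
    have hc : Commute u z := Subgroup.mem_center_iff.1 hz u
    have h1 := key χ hχ z u hc he j hj
    rw [hcent z hz] at h1
    exact hsub h1 (key ψ hψ z u hc he j hj)

/-- Two characters with different signs at a central involution lie in different blocks. -/
theorem not_sameBlock_of_sign (hM : Cfsg.IsPModular p M) (hp : p ≠ 2) {χ ψ : Cfsg.IrrCharacter G}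
    {z : G} (hz : z ∈ Subgroup.center G) (h1 : (χ : G → ℂ) z = (χ : G → ℂ) 1)
    (h2 : (ψ : G → ℂ) z = -(ψ : G → ℂ) 1) : ¬ Cfsg.SameBlock M (χ : G → ℂ) (ψ : G → ℂ) := by
  intro h
  have := h z
  have hc : Subgroup.centralizer ({z} : Set G) = ⊤ := by
    rw [eq_top_iff]
    exact fun x _ => Subgroup.mem_centralizer_singleton_iff.2 (Subgroup.mem_center_iff.1 hz x)
  rw [Cfsg.centralChar, Cfsg.centralChar, hc, Subgroup.index_top, Nat.cast_one, one_mul, one_mul, h1,
    h2, neg_div, div_self (H26.irr_one_ne_zero χ), div_self (H26.irr_one_ne_zero ψ), sub_neg_eq_add,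
    show (1 : ℂ) + 1 = ((2 : ℕ) : ℂ) by norm_num] at this
  obtain ⟨h2m, e⟩ := H41.memLocalIdeal_iff_res.1 this
  rw [show (⟨((2 : ℕ) : ℂ), h2m⟩ : localRing M) = (2 : ℕ) from Subtype.ext rfl, map_natCast,
    H41.IsPModular.natCast_eq_zero_iff hM] at e
  exact hp ((Nat.prime_dvd_prime_iff_eq Fact.out Nat.prime_two).1 e)

/-- Every Sylow subgroup is a defect group of a block with a degree prime to `p`. -/
theorem isDefectGroup_sylow (hM : Cfsg.IsPModular p M) {B : Set (Cfsg.IrrCharacter G)}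
    (hB : Cfsg.IsPBlock M B) {χ : Cfsg.IrrCharacter G} (hχ : χ ∈ B)
    (hd : ¬ p ∣ Cfsg.charDegree (χ : G → ℂ)) (P : Sylow p G) :
    Cfsg.IsDefectGroup p M B (P : Subgroup G) := by
  obtain ⟨D, hD⟩ := H40.exists_isDefectGroup hM hB
  have hdef : Cfsg.blockDefect p B = (Nat.card G).factorization p := by
    have h0 : 0 ∈ (fun χ : Cfsg.IrrCharacter G =>
        (Cfsg.charDegree (χ : G → ℂ)).factorization p) '' B :=
      ⟨χ, hχ, Nat.factorization_eq_zero_of_not_dvd hd⟩
    rw [Cfsg.blockDefect, Nat.sInf_eq_zero.2 (Or.inl h0), Nat.sub_zero]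
  obtain ⟨S, hS⟩ : ∃ S : Sylow p G, (S : Subgroup G) = D :=
    ⟨Sylow.ofCard D (by rw [H40.card_defectGroup hM hB hD, hdef]), Sylow.coe_ofCard _ _⟩
  obtain ⟨x, hx⟩ := MulAction.exists_smul_eq G S P
  have h := H40.isDefectGroup_rconj hD x⁻¹
  rw [← hS] at h
  convert h using 1
  rw [← hx, H23.rconj, inv_inv]
  rfl

end Cfsg.Agent.H69.CentralBlocks
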