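import Cfsg.Agent.H46.Borel
import Cfsg.Agent.H46.Mem
import Cfsg.Prelude.Def_ChevAutomorphisms

/-!
# Generation by the monomial subgroup and few root subgroups
-/

set_option autoImplicit false

namespace Cfsg.Agent.H69.RootOrbits

open Cfsg Cfsg.Lie Cfsg.Agent.H46
open scoped Matrix

variable {K : Type*} [Field K] {D : ChevalleyDatum}

/-- There is at most one dominant root of each length. -/
def OneRepPerLength (G : Good D) : Prop :=
  ∀ a ∈ G.tab.reps, ∀ b ∈ G.tab.reps, D.isLong a = D.isLong b → a = b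

theorem isLong_iff {r : ℕ} : D.isLong r = true ↔
    ∃ s < D.nroots, s ≠ r ∧ s ≠ D.neg r ∧ 2 ≤ (D.pairing s r).natAbs := by
  simp [ChevalleyDatum.isLong, and_assoc]

theorem isLong_reflect (G : Good D) {i r : ℕ} (hi : i < D.rank) (hr : r < D.nroots) :
    D.isLong (D.reflectRoot i r) = D.isLong r := by
  rw [Bool.eq_iff_iff, isLong_iff, isLong_iff]
  constructor
  · rintro ⟨s, hs, h1, h2, h3⟩
    refine ⟨D.reflectRoot i s, G.reflectRoot_lt hi hs, fun e => h1 ?_, fun e => h2 ?_, ?_⟩
    · rw [← e, G.reflectRoot_reflectRoot hi hs]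
    · rw [← G.reflectRoot_neg hi hr, ← e, G.reflectRoot_reflectRoot hi hs]
    · have h4 := G.pairing_reflect hi hs (G.reflectRoot_lt hi hr)
      rw [G.reflectRoot_reflectRoot hi hr] at h4
      rwa [h4]
  · rintro ⟨s, hs, h1, h2, h3⟩
    refine ⟨D.reflectRoot i s, G.reflectRoot_lt hi hs, fun e => h1 ?_, fun e => h2 ?_, ?_⟩
    · exact G.reflectRoot_injective hi hs hr e
    · rw [← G.reflectRoot_neg hi hr] at e
      exact G.reflectRoot_injective hi hs (G.neg_lt hr) e
    · rwa [G.pairing_reflect hi hs hr]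

theorem rootSubgroup_le_reflect_iff (G : Good D) {M : Subgroup (GL D.Idx K)}
    (hN : D.monomialSubgroup K ≤ M) {i r : ℕ} (hi : i < D.rank) (hr : r < D.nroots) :
    D.rootSubgroup K (D.reflectRoot i r) ≤ M ↔ D.rootSubgroup K r ≤ M := by
  have hn : G.ng (D.simple i) (1 : K) ∈ M := hN (G.ng_mem_monomial (G.simple_lt hi))
  have key : ∀ s, s < D.nroots → D.rootSubgroup K s ≤ M →
      D.rootSubgroup K (D.reflectRoot i s) ≤ M := by
    intro s hs h g hg
    obtain ⟨t, rfl⟩ := G.mem_rootSubgroup.1 hg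
    have hsq : (G.tab.eta i s : K) * ((G.tab.eta i s : K) * t) = t := by
      rw [← mul_assoc, ← Int.cast_mul, G.eta_sq, Int.cast_one, one_mul]
    have e := G.ng_simple_mul_xg hi hs ((G.tab.eta i s : K) * t)
    rw [hsq, ← mul_inv_eq_iff_eq_mul] at e
    rw [← e]
    exact mul_mem (mul_mem hn (h (G.xg_mem_rootSubgroup _ _))) (inv_mem hn)
  refine ⟨fun h => ?_, key r hr⟩
  have h2 := key _ (G.reflectRoot_lt hi hr) h
  rwa [G.reflectRoot_reflectRoot hi hr] at h2

/-- With `N`, one root subgroup gives all those of the same length. -/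
theorem rootSubgroup_le_of_isLong_eq (G : Good D) (hrep : OneRepPerLength G)
    {M : Subgroup (GL D.Idx K)} (hN : D.monomialSubgroup K ≤ M) {s r : ℕ} (hs : s < D.nroots)
    (hr : r < D.nroots) (hlen : D.isLong r = D.isLong s) (hsM : D.rootSubgroup K s ≤ M) :
    D.rootSubgroup K r ≤ M := by
  have P : ∀ u < D.nroots, ∃ a ∈ G.tab.reps, D.isLong a = D.isLong u ∧
      (D.rootSubgroup K u ≤ M ↔ D.rootSubgroup K a ≤ M) := by
    refine G.reflect_induction (fun u hu => ⟨u, hu, rfl, Iff.rfl⟩) ?_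
    rintro i u hi hu ⟨a, ha, h1, h2⟩
    exact ⟨a, ha, h1.trans (isLong_reflect G hi hu).symm,
      (rootSubgroup_le_reflect_iff G hN hi hu).trans h2⟩
  obtain ⟨a, ha, ha1, ha2⟩ := P r hr
  obtain ⟨b, hb, hb1, hb2⟩ := P s hs
  obtain rfl := hrep a ha b hb (by rw [ha1, hb1, hlen])
  exact ha2.2 (hb2.1 hsM)

/-- With `N`, root subgroups of both lengths generate everything. -/
theorem group_le_of_two_lengths (G : Good D) (hrep : OneRepPerLength G)
    {M : Subgroup (GL D.Idx K)} (hN : D.monomialSubgroup K ≤ M) {s l : ℕ} (hs : s < D.nroots)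
    (hl : l < D.nroots) (hne : D.isLong s ≠ D.isLong l) (hsM : D.rootSubgroup K s ≤ M)
    (hlM : D.rootSubgroup K l ≤ M) : D.group K ≤ M := by
  refine G.group_le fun r hr t => ?_
  by_cases h : D.isLong r = D.isLong s
  · exact rootSubgroup_le_of_isLong_eq G hrep hN hs hr h hsM (G.xg_mem_rootSubgroup _ _)
  · refine rootSubgroup_le_of_isLong_eq G hrep hN hl hr ?_ hlM (G.xg_mem_rootSubgroup _ _)
    revert h hne
    cases D.isLong r <;> cases D.isLong s <;> cases D.isLong l <;> simp

/-- With `N`, a short root subgroup generates everything when some commutator of short root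
elements is a long root element with invertible coefficient. -/
theorem group_le_of_short (G : Good D) (hrep : OneRepPerLength G)
    {M : Subgroup (GL D.Idx K)} (hN : D.monomialSubgroup K ≤ M) {p r s l : ℕ} {C : ℤ}
    (hp : p < D.nroots) (hr : r < D.nroots) (hs : s < D.nroots) (hl : l < D.nroots)
    (hps : D.isLong p = false) (hrs : D.isLong r = false) (hss : D.isLong s = false)
    (hls : D.isLong l = true) (hne : s ≠ r) (hneg : s ≠ D.neg r)
    (hterms : D.commTerms r s = [(l, C, 1, 1)]) (hC : (C : K) ≠ 0)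
    (hpM : D.rootSubgroup K p ≤ M) : D.group K ≤ M := by
  have hrM := rootSubgroup_le_of_isLong_eq G hrep hN hp hr (hrs.trans hps.symm) hpM
  have hsM := rootSubgroup_le_of_isLong_eq G hrep hN hp hs (hss.trans hps.symm) hpM
  refine group_le_of_two_lengths G hrep hN hp hl (by rw [hps, hls]; decide) hpM fun g hg => ?_
  obtain ⟨v, rfl⟩ := G.mem_rootSubgroup.1 hg
  have hxy : ∀ t : K, G.xg s 1 * G.xg r t = G.xg r t * G.xg s 1 * G.xg l ((C : K) * -t) := by
    intro t
    have h := G.x_mul_x (F := K) hr hs hne hneg t 1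
    apply Units.ext
    rw [Units.val_mul, Units.val_mul, Units.val_mul, G.coe_xg, G.coe_xg, G.coe_xg, h,
      ChevalleyDatum.commWord, hterms]
    simp [ChevalleyDatum.wordMat]
  have h := hxy (-((C : K)⁻¹ * v))
  rw [neg_neg, mul_inv_cancel_left₀ hC] at h
  have e : G.xg l v = (G.xg r (-((C : K)⁻¹ * v)) * G.xg s 1)⁻¹ *
      (G.xg s 1 * G.xg r (-((C : K)⁻¹ * v))) := by
    rw [h, inv_mul_cancel_left]
  rw [e]
  exact mul_mem (inv_mem (mul_mem (hrM (G.xg_mem_rootSubgroup _ _))
      (hsM (G.xg_mem_rootSubgroup _ _))))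
    (mul_mem (hsM (G.xg_mem_rootSubgroup _ _)) (hrM (G.xg_mem_rootSubgroup _ _)))

/-- For one dominant root, one root subgroup and `N` generate everything. -/
theorem group_le_of_single_rep (G : Good D) {a : ℕ} (hreps : G.tab.reps = [a])
    {M : Subgroup (GL D.Idx K)} (hN : D.monomialSubgroup K ≤ M) {p : ℕ} (hp : p < D.nroots)
    (hpM : D.rootSubgroup K p ≤ M) : D.group K ≤ M := by
  have hrep : OneRepPerLength G := fun x hx y hy _ => by
    rw [hreps, List.mem_singleton] at hx hy
    rw [hx, hy]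
  refine G.group_le fun r hr t => ?_
  have P : ∀ u < D.nroots, (D.rootSubgroup K u ≤ M ↔ D.rootSubgroup K a ≤ M) := by
    refine G.reflect_induction (fun u hu => ?_) fun i u hi hu h =>
      (rootSubgroup_le_reflect_iff G hN hi hu).trans h
    rw [hreps, List.mem_singleton] at hu
    rw [hu]
  exact (P r hr).2 ((P p hp).1 hpM) (G.xg_mem_rootSubgroup _ _)

end Cfsg.Agent.H69.RootOrbits
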