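import Mathlib
import Cfsg.Agent.H69.NonsplitTorus
import Cfsg.Agent.H68.SL2ByDegree
import Cfsg.Agent.H21.FrobeniusTheorem

/-!
Cuspidal characters of `SL₂(q)`, `q` odd: `V = St·R(α) - R(α) - Ind_C θ`.
-/

namespace Cfsg.Agent.H69

open Matrix Matrix.SpecialLinearGroup
open Cfsg.Agent.H68 (sl2Data sl2Diag sl2U sPS sSt)
open scoped ComplexConjugate

variable {F : Type*} [Field F] [Fintype F] [DecidableEq F]

local notation "SL₂" => Matrix.SpecialLinearGroup (Fin 2) F
local notation "M₂" => Matrix (Fin 2) (Fin 2) F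
local notation "q" => Fintype.card F

variable {C : Subgroup (Matrix.SpecialLinearGroup (Fin 2) F)}

/-- The virtual cuspidal character attached to `α` and `θ`. -/
noncomputable def cusp (α : MulChar F ℂ) (θ : C →* ℂˣ) : SL₂ → ℂ :=
  sSt * sPS α - sPS α - Cfsg.indFun C (fun c => (θ c : ℂ))

lemma isClassFunction_sSt : Cfsg.IsClassFunction SL₂ (sSt (F := F)) :=
  Cfsg.Agent.H26.isClassFunction_of_isCharacter
    (Cfsg.Agent.H26.isCharacter_of_irr Cfsg.Agent.H68.isIrrCharacter_sSt)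

lemma isClassFunction_cusp (α : MulChar F ℂ) (θ : C →* ℂˣ) :
    Cfsg.IsClassFunction SL₂ (cusp α θ) := by
  intro g h
  simp only [cusp, Pi.sub_apply, Pi.mul_apply, isClassFunction_sSt g h,
    Cfsg.Agent.H68.isClassFunction_sPS α g h,
    Cfsg.Agent.H68.isClassFunction_indFun C (fun c => (θ c : ℂ)) g h]

lemma conj_sSt (g : SL₂) : conj (sSt g) = sSt (F := F) g := by
  have h : ∃ n : ℕ, sPS (1 : MulChar F ℂ) g = n := by
    rw [← Cfsg.Agent.H68.indFun_upper_eq_sPS]
    have e : (fun b : ↥((Cfsg.upperTriangularGL 2 F).comap Matrix.SpecialLinearGroup.toGL) =>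
        (1 : MulChar F ℂ) (((b : SL₂) : M₂) 0 0)) = fun _ => (1 : ℂ) := by
      funext b
      refine MulChar.one_apply (isUnit_iff_ne_zero.2 fun h0 => ?_)
      have hd := (b : SL₂).2
      rw [Matrix.det_fin_two, h0, (Cfsg.Agent.H68.sl2_mem_upper_iff (b : SL₂)).1 b.2] at hd
      simp at hd
    rw [e, Cfsg.Agent.H68.indFun_one_eq_fixedPointCharacter]
    exact ⟨_, rfl⟩
  obtain ⟨n, hn⟩ := h
  simp [sSt, hn]

/-- Values of the principal series on the Borel subgroup. -/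
lemma sPS_borel (α : MulChar F ℂ) (a : Fˣ) (x : F) :
    sPS α (sl2Diag a * sl2U x) = if a ^ 2 = 1 then
      (if x = 0 then ((q : ℂ) + 1) * α a else α a) else α a + α ((a⁻¹ : Fˣ) : F) := by
  have h := (sl2Data F).ps_apply_tu (MulChar.equivToUnitHom α) a x
  simp only [sl2Data, invMonoidHom_apply, powMonoidHom_apply, Units.val_pow_eq_pow_val,
    MulChar.coe_equivToUnitHom] at h
  change sPS α (sl2Diag a * sl2U x) = _ at h
  rw [h]
  by_cases ha : a ^ 2 = 1
  · have hinv : a⁻¹ = a := inv_eq_of_mul_eq_one_right (by rw [← sq]; exact ha)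
    have hv : ((a : F) ^ 2)⁻¹ = 1 := by
      rw [← Units.val_pow_eq_pow_val, ha, Units.val_one, inv_one]
    rw [if_pos ha]
    simp only [hv, one_mul, add_sub_cancel_right, hinv]
    by_cases hx : x = 0
    · simp [hx]
      ring
    · simp [hx]
  · rw [if_neg ha]
    have hc : ((a : F) ^ 2)⁻¹ ≠ 1 := fun h => ha (Units.ext (by simpa using inv_eq_one.1 h))
    rw [Finset.sum_eq_single (x / (((a : F) ^ 2)⁻¹ - 1))
      (fun z _ hz => if_neg (fun e => hz (by
        rw [eq_div_iff (sub_ne_zero.2 hc)]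
        linear_combination -e))) (by simp),
      if_pos (by
        generalize ((a : F) ^ 2)⁻¹ = v at hc ⊢
        have : v - 1 ≠ 0 := sub_ne_zero.2 hc
        field_simp
        ring)]

/-- Values of the Steinberg character on the Borel subgroup. -/
lemma sSt_borel (a : Fˣ) (x : F) :
    sSt (sl2Diag a * sl2U x : SL₂) = if a ^ 2 = 1 then (if x = 0 then (q : ℂ) else 0) else 1 := by
  have h1 : ∀ b : Fˣ, (1 : MulChar F ℂ) (b : F) = 1 := fun b => MulChar.one_apply b.isUnit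
  simp only [sSt, sPS_borel, h1]
  split_ifs <;> ring

lemma neg_one_eq : (-1 : SL₂) = sl2Diag (-1) * sl2U 0 := by
  apply Subtype.ext
  ext i j
  fin_cases i <;> fin_cases j <;> simp

lemma center_eq_borel {z : SL₂} (hz : z ∈ Subgroup.center SL₂) :
    ∃ a : Fˣ, a ^ 2 = 1 ∧ z = sl2Diag a * sl2U 0 := by
  rcases (sl2_mem_center_iff_eq z).1 hz with rfl | rfl
  · refine ⟨1, one_pow 2, ?_⟩
    apply Subtype.ext
    ext i j
    fin_cases i <;> fin_cases j <;> simp
  · exact ⟨-1, by simp, neg_one_eq⟩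

section
variable (h2 : (2 : F) ≠ 0) (hC : IsNonsplit C)

include h2 hC

lemma central_theta {α : MulChar F ℂ} {θ : C →* ℂˣ}
    (hα : α (-1) = (θ ⟨-1, hC.neg_one_mem⟩ : ℂ)) {a : Fˣ} (ha : a ^ 2 = 1)
    (hm : (sl2Diag a * sl2U 0 : SL₂) ∈ C) : (θ ⟨_, hm⟩ : ℂ) = α (a : F) := by
  rcases sq_eq_one_iff.1 (show (a : F) ^ 2 = 1 by rw [← Units.val_pow_eq_pow_val, ha, Units.val_one])
    with e | e
  · have : (⟨_, hm⟩ : C) = 1 := by
      apply Subtype.ext
      change (sl2Diag a * sl2U 0 : SL₂) = 1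
      rw [show a = 1 from Units.ext e]
      apply Subtype.ext
      ext i j
      fin_cases i <;> fin_cases j <;> simp
    rw [this, map_one, Units.val_one, e, map_one]
  · have : (⟨_, hm⟩ : C) = ⟨-1, hC.neg_one_mem⟩ := by
      apply Subtype.ext
      change sl2Diag a * sl2U 0 = -1
      rw [show a = -1 from Units.ext (by simpa using e)]
      exact neg_one_eq.symm
    rw [this, e, hα]

/-- Values of the virtual cuspidal character on the Borel subgroup. -/
lemma cusp_borel {α : MulChar F ℂ} {θ : C →* ℂˣ}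
    (hα : α (-1) = (θ ⟨-1, hC.neg_one_mem⟩ : ℂ)) (a : Fˣ) (x : F) :
    cusp α θ (sl2Diag a * sl2U x) = if a ^ 2 = 1 then
      (if x = 0 then ((q : ℂ) - 1) * α a else -α a) else 0 := by
  simp only [cusp, Pi.sub_apply, Pi.mul_apply, sSt_borel, sPS_borel]
  set g : SL₂ := sl2Diag a * sl2U x with hg
  have hbor : (g : M₂) 1 0 = 0 := by simp [hg]
  by_cases hcen : g ∈ Subgroup.center SL₂
  · obtain ⟨h01, -, h00⟩ := (sl2_mem_center_iff g).1 hcen
    simp [hg] at h01 h00
    have ha : a ^ 2 = 1 := by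
      apply Units.ext
      rw [Units.val_pow_eq_pow_val, Units.val_one, sq]
      nth_rewrite 2 [h00]
      exact mul_inv_cancel₀ a.ne_zero
    have hx : x = 0 := h01
    subst hx
    have hgC : g ∈ C := hC.center_le hcen
    simp only [if_pos ha, if_pos]
    rw [indFun_central_apply _ _ hgC hcen]
    rw [central_theta h2 hC hα ha hgC, card_sl2', hC.ns_card]
    have hq1 := Fintype.one_lt_card (α := F)
    push_cast [Nat.cast_sub (show 1 ≤ q by omega)]
    have : ((q : ℂ) + 1) ≠ 0 := by exact_mod_cast Nat.succ_ne_zero q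
    field_simp
    ring
  · have hr : rootCount (g : M₂).trace ≠ 0 := by
      rw [Ne, rootCount_eq_zero_iff]
      intro h
      apply h (a : F)
      simp [hg, Matrix.trace_fin_two]
      field_simp
      ring
    rw [hC.indFun_eq_zero' _ hcen hr]
    split_ifs with ha hx
    · exfalso
      apply hcen
      rw [sl2_mem_center_iff]
      have hinv : (a : F)⁻¹ = a :=
        inv_eq_of_mul_eq_one_right (by rw [← sq, ← Units.val_pow_eq_pow_val, ha, Units.val_one])
      simp [IsScalar2, hg, hx, hinv]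
    · ring
    · ring

lemma cusp_one {α : MulChar F ℂ} {θ : C →* ℂˣ}
    (hα : α (-1) = (θ ⟨-1, hC.neg_one_mem⟩ : ℂ)) : cusp α θ 1 = (q : ℂ) - 1 := by
  have h := cusp_borel h2 hC hα 1 0
  have h1 : (sl2Diag 1 * sl2U 0 : SL₂) = 1 := by
    apply Subtype.ext
    ext i j
    fin_cases i <;> fin_cases j <;> simp
  rw [h1, if_pos (one_pow 2), if_pos rfl, Units.val_one, map_one, mul_one] at h
  exact h

lemma cusp_apply_torus {α : MulChar F ℂ} {θ : C →* ℂˣ} {c : SL₂} (hc : c ∈ C)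
    (hn : c ∉ Subgroup.center SL₂) :
    cusp α θ c = -((θ ⟨c, hc⟩ : ℂ) + ((θ ⟨c, hc⟩)⁻¹ : ℂˣ)) := by
  obtain ⟨-, hr, -⟩ := hC.noncentral hc hn
  have he := (rootCount_zero_iff_no_eigenvector c).1 hr
  simp only [cusp, Pi.sub_apply, Pi.mul_apply, Cfsg.Agent.H68.sPS_elliptic _ he, mul_zero,
    hC.indFun_apply θ hc hn, sub_zero, zero_sub]

lemma cusp_torus_eq {α : MulChar F ℂ} {θ : C →* ℂˣ}
    (hα : α (-1) = (θ ⟨-1, hC.neg_one_mem⟩ : ℂ)) [DecidableEq C] (c : C) :
    cusp α θ c = -((θ c : ℂ) + ((θ c)⁻¹ : ℂˣ)) +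
      ((q : ℂ) + 1) * ((if c = 1 then 1 else 0) +
        (if c = ⟨-1, hC.neg_one_mem⟩ then (θ ⟨-1, hC.neg_one_mem⟩ : ℂ) else 0)) := by
  have hne : (1 : C) ≠ ⟨-1, hC.neg_one_mem⟩ := fun h =>
    sl2_neg_ne_self h2 (1 : SL₂) (congrArg Subtype.val h).symm
  by_cases hcen : (c : SL₂) ∈ Subgroup.center SL₂
  · rcases (sl2_mem_center_iff_eq _).1 hcen with e | e
    · have : c = 1 := Subtype.ext e
      subst this
      rw [if_pos rfl, if_neg hne, Subgroup.coe_one, cusp_one h2 hC hα]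
      simp
      ring
    · have : c = ⟨-1, hC.neg_one_mem⟩ := Subtype.ext e
      subst this
      have h := cusp_borel h2 hC hα (-1) 0
      rw [← neg_one_eq, if_pos (by simp), if_pos rfl, Units.val_neg, Units.val_one, hα] at h
      rw [if_neg hne.symm, if_pos rfl]
      change cusp α θ (-1 : SL₂) = _
      rw [h, ← map_inv]
      rw [show (⟨-1, hC.neg_one_mem⟩ : C)⁻¹ = ⟨-1, hC.neg_one_mem⟩ from
        inv_eq_of_mul_eq_one_right (Subtype.ext (by simp))]
      ring
  · rw [cusp_apply_torus h2 hC c.2 hcen, if_neg, if_neg]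
    · ring
    · rintro rfl
      exact hcen ((sl2_mem_center_iff_eq _).2 (Or.inr rfl))
    · rintro rfl
      exact hcen (one_mem _)

/-- The cuspidal character is orthogonal to the principal series. -/
lemma classInner_cusp_sPS {α : MulChar F ℂ} {θ : C →* ℂˣ}
    (hα : α (-1) = (θ ⟨-1, hC.neg_one_mem⟩ : ℂ)) (β : MulChar F ℂ) :
    Cfsg.classInner (cusp α θ) (sPS β) = 0 := by
  rw [sPS, (sl2Data F).classInner_ps (isClassFunction_cusp α θ)]
  refine mul_eq_zero_of_right _ (Finset.sum_eq_zero fun a _ => ?_)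
  rw [← Finset.sum_mul]
  refine mul_eq_zero_of_left ?_ _
  change ∑ x : F, cusp α θ (sl2Diag a * sl2U x) = 0
  simp only [cusp_borel h2 hC hα]
  by_cases ha : a ^ 2 = 1
  · simp only [if_pos ha]
    rw [Fintype.sum_eq_add_sum_compl (0 : F), if_pos rfl,
      Finset.sum_congr rfl (fun x hx => if_neg (by simpa using hx)), Finset.sum_const,
      Finset.card_compl, Finset.card_singleton, nsmul_eq_mul,
      Nat.cast_sub Fintype.card_pos, Nat.cast_one]
    ring
  · simp [if_neg ha]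

lemma classInner_cusp_sSt_mul {α : MulChar F ℂ} {θ : C →* ℂˣ}
    (hα : α (-1) = (θ ⟨-1, hC.neg_one_mem⟩ : ℂ)) (β : MulChar F ℂ) :
    Cfsg.classInner (cusp α θ) (sSt * sPS β) = 1 + α (-1) * conj (β (-1)) := by
  classical
  have h1 : Cfsg.classInner (cusp α θ) (sSt * sPS β) =
      Cfsg.classInner (cusp α θ * sSt) (sPS β) := by
    simp only [Cfsg.classInner, Pi.mul_apply, map_mul, conj_sSt]
    congr 1
    exact Finset.sum_congr rfl fun g _ => by ring
  rw [h1, sPS, (sl2Data F).classInner_ps (φ := cusp α θ * sSt) (fun g h => by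
    simp only [Pi.mul_apply, isClassFunction_cusp α θ g h, isClassFunction_sSt g h])]
  have key : ∀ (a : Fˣ) (x : F), (sl2Data F).t a * (sl2Data F).u x = sl2Diag a * sl2U x :=
    fun _ _ => rfl
  simp only [key]
  simp only [MulChar.coe_equivToUnitHom, Pi.mul_apply, cusp_borel h2 hC hα, sSt_borel]
  have hinner : ∀ a : Fˣ, (∑ x : F, ((if a ^ 2 = 1 then (if x = 0 then ((q : ℂ) - 1) * α a
      else -α a) else 0) * (if a ^ 2 = 1 then (if x = 0 then (q : ℂ) else 0) else 1)) *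
        conj (β (a : F))) =
      if a ^ 2 = 1 then (q : ℂ) * ((q : ℂ) - 1) * (α a * conj (β (a : F))) else 0 := by
    intro a
    by_cases ha : a ^ 2 = 1
    · simp only [if_pos ha]
      rw [Finset.sum_eq_single (0 : F) (fun x _ hx => by simp [hx]) (by simp), if_pos rfl,
        if_pos rfl]
      ring
    · simp [if_neg ha]
  rw [Finset.sum_congr rfl fun a _ => hinner a, ← Finset.sum_filter]
  have hset : Finset.univ.filter (fun a : Fˣ => a ^ 2 = 1) = {1, -1} := by
    ext a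
    simp [sq, mul_eq_one_iff_eq_inv, eq_comm, ← Units.inv_eq_self_iff]
  have hne : (1 : Fˣ) ≠ -1 := fun h => h2 (by
    have := congrArg Units.val h
    simp at this
    linear_combination this)
  rw [hset, Finset.sum_pair hne, Units.val_one, Units.val_neg, Units.val_one, map_one, map_one,
    map_one, Fintype.card_units, Nat.cast_sub Fintype.card_pos, Nat.cast_one]
  have hq1 : (q : ℂ) - 1 ≠ 0 := by
    have := Fintype.one_lt_card (α := F)
    rw [sub_ne_zero]
    exact_mod_cast this.ne'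
  have hq0 : (q : ℂ) ≠ 0 := Nat.cast_ne_zero.2 Fintype.card_ne_zero
  field_simp

lemma classInner_cusp_indFun {α : MulChar F ℂ} {θ : C →* ℂˣ}
    (hα : α (-1) = (θ ⟨-1, hC.neg_one_mem⟩ : ℂ)) (η : C →* ℂˣ)
    [Decidable (θ = η)] [Decidable (θ⁻¹ = η)] :
    Cfsg.classInner (cusp α θ) (Cfsg.indFun C (fun c => (η c : ℂ))) =
      1 + (θ ⟨-1, hC.neg_one_mem⟩ : ℂ) * conj (η ⟨-1, hC.neg_one_mem⟩ : ℂ)
        - ((if θ = η then 1 else 0) + (if θ⁻¹ = η then 1 else 0)) := by
  classical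
  haveI : Fintype C := Fintype.ofFinite C
  letI : CommGroup C :=
    { (inferInstance : Group C) with
      mul_comm := fun a b => (@IsCyclic.commGroup C _ hC.ns_cyclic).mul_comm a b }
  rw [Cfsg.Agent.H68.classInner_indFun_right C (isClassFunction_cusp α θ), Cfsg.classInner]
  simp only [cusp_torus_eq h2 hC hα, add_mul, neg_mul, mul_add, mul_assoc, ite_mul, zero_mul,
    one_mul, mul_ite, mul_zero, Finset.sum_add_distrib, Finset.sum_neg_distrib,
    Finset.sum_ite_eq', Finset.mem_univ, if_true, map_one, Units.val_one, mul_one]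
  have e1 : ∑ c : C, (θ c : ℂ) * conj (η c : ℂ) = if θ = η then (Fintype.card C : ℂ) else 0 :=
    Cfsg.Agent.H68.sum_hom_mul_conj θ η
  have e2 : ∑ c : C, (((θ c)⁻¹ : ℂˣ) : ℂ) * conj (η c : ℂ) =
      if θ⁻¹ = η then (Fintype.card C : ℂ) else 0 :=
    Cfsg.Agent.H68.sum_hom_mul_conj θ⁻¹ η
  rw [e1, e2, ← Nat.card_eq_fintype_card, hC.ns_card]
  push_cast
  have hq : (q : ℂ) + 1 ≠ 0 := by exact_mod_cast Nat.succ_ne_zero q
  split_ifs <;> field_simp <;> ring

/-- The inner products of virtual cuspidal characters. -/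
lemma classInner_cusp_cusp {α β : MulChar F ℂ} {θ η : C →* ℂˣ}
    (hα : α (-1) = (θ ⟨-1, hC.neg_one_mem⟩ : ℂ)) (hβ : β (-1) = (η ⟨-1, hC.neg_one_mem⟩ : ℂ))
    [Decidable (θ = η)] [Decidable (θ⁻¹ = η)] :
    Cfsg.classInner (cusp α θ) (cusp β η) =
      (if θ = η then 1 else 0) + (if θ⁻¹ = η then 1 else 0) := by
  conv_lhs => arg 2; rw [cusp]
  rw [Cfsg.Agent.H26.classInner_sub_right, Cfsg.Agent.H26.classInner_sub_right,
    classInner_cusp_sSt_mul h2 hC hα, classInner_cusp_sPS h2 hC hα, classInner_cusp_indFun h2 hC hα,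
    hα, hβ]
  ring

lemma exists_mulChar_neg_one (θ : C →* ℂˣ) :
    ∃ α : MulChar F ℂ, α (-1) = (θ ⟨-1, hC.neg_one_mem⟩ : ℂ) := by
  have hne : ((-1 : Fˣ) : Fˣ) ≠ 1 := fun h => h2 (by
    have := congrArg Units.val h
    simp at this
    linear_combination -this)
  rcases hom_apply_sq_eq_one θ (z := ⟨-1, hC.neg_one_mem⟩) (Subtype.ext (by simp)) with e | e
  · exact ⟨1, by rw [e]; exact MulChar.one_apply isUnit_one.neg⟩
  · obtain ⟨φ, hφ⟩ := CommGroup.exists_apply_ne_one_of_hasEnoughRootsOfUnity Fˣ ℂ hne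
    refine ⟨MulChar.equivToUnitHom.symm φ, ?_⟩
    rw [e, show (-1 : F) = ((-1 : Fˣ) : F) by simp, MulChar.equivToUnitHom_symm_coe]
    rcases hom_apply_sq_eq_one φ (z := (-1 : Fˣ)) (by simp) with h | h
    · exact absurd (Units.ext h) hφ
    · exact h

lemma ne_inv_of_exists {θ : C →* ℂˣ} (hθ : ∃ c, θ c ^ 2 ≠ 1) : θ⁻¹ ≠ θ := by
  intro h
  obtain ⟨c, hc⟩ := hθ
  have := DFunLike.congr_fun h c
  rw [MonoidHom.inv_apply, inv_eq_iff_mul_eq_one, ← sq] at this
  exact hc this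

/-- For `θ² ≠ 1` the virtual cuspidal character is irreducible. -/
lemma isIrrCharacter_cusp {α : MulChar F ℂ} {θ : C →* ℂˣ}
    (hα : α (-1) = (θ ⟨-1, hC.neg_one_mem⟩ : ℂ)) (hθ : ∃ c, θ c ^ 2 ≠ 1) :
    Cfsg.IsIrrCharacter SL₂ (cusp α θ) := by
  classical
  have hnorm : Cfsg.classInner (cusp α θ) (cusp α θ) = 1 := by
    rw [classInner_cusp_cusp h2 hC hα hα, if_pos rfl, if_neg (ne_inv_of_exists h2 hC hθ), add_zero]
  refine Cfsg.Agent.H68.isIrrCharacter_of_norm_one ?_ hnorm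
  have e : cusp α θ = sSt * sPS α - (sPS α + Cfsg.indFun C (fun c => (θ c : ℂ))) := by
    rw [cusp]; abel
  rw [e] at hnorm ⊢
  refine Cfsg.Agent.H21.isCharacter_of_virtual_norm_one
    (Cfsg.Agent.H26.isCharacter_mul
      (Cfsg.Agent.H26.isCharacter_of_irr Cfsg.Agent.H68.isIrrCharacter_sSt)
      (Cfsg.Agent.H68.isCharacter_sPS α))
    (Cfsg.Agent.H26.isCharacter_add (Cfsg.Agent.H68.isCharacter_sPS α)
      (Cfsg.Agent.H68.isCharacter_indFun_hom C θ)) hnorm (d := q - 1) ?_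
  rw [← e, cusp_one h2 hC hα, Nat.cast_sub Fintype.card_pos, Nat.cast_one]

omit h2 in
/-- Multiplication by a central element. -/
lemma cusp_neg {α : MulChar F ℂ} {θ : C →* ℂˣ}
    (hα : α (-1) = (θ ⟨-1, hC.neg_one_mem⟩ : ℂ)) (g : SL₂) :
    cusp α θ (-1 * g) = (θ ⟨-1, hC.neg_one_mem⟩ : ℂ) * cusp α θ g := by
  have hcen : (-1 : SL₂) ∈ Subgroup.center SL₂ := (sl2_mem_center_iff_eq _).2 (Or.inr rfl)
  have hmem : (-1 : SL₂) ∈ (Cfsg.upperTriangularGL 2 F).comap Matrix.SpecialLinearGroup.toGL :=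
    (Cfsg.Agent.H68.sl2_mem_upper_iff _).2 (by simp)
  have hps : ∀ β : MulChar F ℂ, sPS β (-1 * g) = β (-1) * sPS β g := by
    intro β
    rw [← Cfsg.Agent.H68.indFun_upper_eq_sPS]
    refine indFun_mul_central _ _ hmem hcen _ (fun x => ?_) g
    simp only [Subgroup.coe_mul, coe_mul, coe_neg, coe_one, Matrix.neg_mul, Matrix.one_mul,
      Matrix.neg_apply]
    rw [← neg_one_mul, map_mul]
  have hst : sSt (-1 * g) = sSt (F := F) g := by
    simp only [sSt, hps, MulChar.one_apply isUnit_one.neg, one_mul]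
  simp only [cusp, Pi.sub_apply, Pi.mul_apply, hst, hps, hα,
    indFun_mul_central C (fun c => (θ c : ℂ)) hC.neg_one_mem hcen
      (θ ⟨-1, hC.neg_one_mem⟩ : ℂ) (fun x => by simp [map_mul]) g]
  ring

end

end Cfsg.Agent.H69
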