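import Mathlib
import Cfsg.Agent.H69.SL2Cuspidal

/-!
The irreducible characters of degree `q - 1` and `(q - 1)/2` of `SL₂(q)` on a non-split torus.
-/

namespace Cfsg.Agent.H69

open Matrix Matrix.SpecialLinearGroup
open Cfsg.Agent.H68 (sl2Data sl2Diag sl2U sPS sSt)
open scoped ComplexConjugate

lemma eq_zero_of_classInner_self {G : Type*} [Group G] [Fintype G] {f : G → ℂ}
    (h : Cfsg.classInner f f = 0) : f = 0 := by
  classical
  simp only [Cfsg.classInner, Complex.mul_conj] at h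
  rcases mul_eq_zero.1 h with h1 | h1
  · exact absurd (inv_eq_zero.1 h1) (Nat.cast_ne_zero.2 Nat.card_pos.ne')
  · rw [← Complex.ofReal_sum, Complex.ofReal_eq_zero] at h1
    funext g
    exact Complex.normSq_eq_zero.1
      ((Finset.sum_eq_zero_iff_of_nonneg fun x _ => Complex.normSq_nonneg (f x)).1 h1 g
        (Finset.mem_univ g))

variable {F : Type*} [Field F] [Fintype F] [DecidableEq F]
  {C : Subgroup (Matrix.SpecialLinearGroup (Fin 2) F)}

local notation "SL₂" => Matrix.SpecialLinearGroup (Fin 2) F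
local notation "M₂" => Matrix (Fin 2) (Fin 2) F
local notation "q" => Fintype.card F

/-- Enumeration of the irreducible characters of degree `q - 1`. -/
lemma exists_cusp_of_degree (h2 : (2 : F) ≠ 0) (hC : IsNonsplit C) {χ : SL₂ → ℂ}
    (hχ : Cfsg.IsIrrCharacter SL₂ χ) (hd : χ 1 = (q : ℂ) - 1) :
    (∃ (α : MulChar F ℂ) (θ : C →* ℂˣ),
      α (-1) = (θ ⟨-1, hC.neg_one_mem⟩ : ℂ) ∧ (∃ c, θ c ^ 2 ≠ 1) ∧ χ = cusp α θ) ∨
    (q = 3 ∧ ∀ g : SL₂, (∀ (c : F) (v : Fin 2 → F), v ≠ 0 → (g : M₂).mulVec v ≠ c • v) →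
      χ g = 0) := by
  classical
  have hodd : Odd q := Nat.odd_iff.2 (odd_card_of_two_ne_zero h2)
  obtain ⟨k, n, ψ, hk, hk1, -, hn, hψ⟩ := Cfsg.Agent.H68.exists_odd_setup (F := F) hodd
  obtain ⟨H₁, H₂, C₁, C₂, T, hH, -, hT, -, hconj, hsum, -, -, -, -, dH₁, dH₂, dC₁, dC₂, -, -,
    hcases⟩ := Cfsg.Agent.H68.sl2_odd_cases hk hn hψ
  have hd' : χ 1 = ((2 * k : ℕ) : ℂ) := by rw [hd, hk]; push_cast; ring
  have hnot : ∀ (α : MulChar F ℂ) (θ : C →* ℂˣ)
      (hα : α (-1) = (θ ⟨-1, hC.neg_one_mem⟩ : ℂ)) (hθ : ∃ c, θ c ^ 2 ≠ 1),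
      (⟨cusp α θ, isIrrCharacter_cusp h2 hC hα hθ⟩ : Cfsg.IrrCharacter SL₂) ∈ T := by
    intro α θ hα hθ
    have hdeg : cusp α θ 1 = ((2 * k : ℕ) : ℂ) := by
      rw [cusp_one h2 hC hα, hk]; push_cast; ring
    rcases hcases ⟨cusp α θ, isIrrCharacter_cusp h2 hC hα hθ⟩ with
      ⟨-, e⟩ | ⟨-, e⟩ | ⟨-, e⟩ | ⟨h, e⟩ | ⟨-, e⟩ | ⟨h, -⟩
    · have := Nat.cast_injective (hdeg.symm.trans e); omega
    · have := Nat.cast_injective (hdeg.symm.trans e); omega
    · have := Nat.cast_injective (hdeg.symm.trans e); omega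
    · exfalso
      have h0 := classInner_cusp_sPS h2 hC hα (Cfsg.Agent.H68.qchar F)
      rw [hsum, Cfsg.Agent.H26.classInner_add_right] at h0
      have h12 := Cfsg.Agent.H26.classInner_irr H₁ H₂
      have h21 := Cfsg.Agent.H26.classInner_irr H₂ H₁
      rw [if_neg hH] at h12
      rw [if_neg hH.symm] at h21
      rcases h with h | h <;>
        rw [show cusp α θ = _ from congrArg Subtype.val h,
          Cfsg.Agent.H26.classInner_irr, Cfsg.Agent.H26.classInner_irr] at h0
      · simp [hH] at h0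
      · simp [hH.symm] at h0
    · have := Nat.cast_injective (hdeg.symm.trans e); omega
    · exact h
  rcases hcases ⟨χ, hχ⟩ with ⟨-, e⟩ | ⟨-, e⟩ | ⟨-, e⟩ | ⟨h, e⟩ | ⟨-, e⟩ | ⟨h, -⟩
  · have := Nat.cast_injective (hd'.symm.trans e); omega
  · have := Nat.cast_injective (hd'.symm.trans e); omega
  · have := Nat.cast_injective (hd'.symm.trans e); omega
  · refine Or.inr ⟨by have := Nat.cast_injective (hd'.symm.trans e); omega, fun g hg => ?_⟩
    have hz := Cfsg.Agent.H68.half_elliptic (Cfsg.Agent.H26.irr_isClassFunction H₁) hconj hsum hg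
    rcases h with h | h <;> rw [show χ = _ from congrArg Subtype.val h]
    · exact hz.1
    · exact hz.2
  · have := Nat.cast_injective (hd'.symm.trans e); omega
  left
  haveI : Fintype C := Fintype.ofFinite C
  letI : CommGroup C :=
    { (inferInstance : Group C) with
      mul_comm := fun a b => (@IsCyclic.commGroup C _ hC.ns_cyclic).mul_comm a b }
  haveI : Fintype (C →* ℂˣ) := Fintype.ofFinite _
  choose αf hαf using exists_mulChar_neg_one h2 hC
  let S : Finset (C →* ℂˣ) := Finset.univ.filter fun θ => ∃ c, θ c ^ 2 ≠ 1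
  let f : (C →* ℂˣ) → (SL₂ → ℂ) := fun θ => cusp (αf θ) θ
  have hScard : S.card + 2 = q + 1 := by
    obtain ⟨e⟩ := CommGroup.monoidHom_mulEquiv_of_hasEnoughRootsOfUnity C ℂ
    have hiff : ∀ θ : C →* ℂˣ, θ ∈ S ↔ ¬ (e θ = 1 ∨ e θ = ⟨-1, hC.neg_one_mem⟩) := by
      intro θ
      rw [← hC.inv_eq_self_iff h2, ← map_mul, EmbeddingLike.map_eq_one_iff]
      simp only [S, Finset.mem_filter, Finset.mem_univ, true_and]
      rw [MonoidHom.ext_iff, not_forall]
      simp [sq]
    have hne : (1 : C) ≠ ⟨-1, hC.neg_one_mem⟩ := fun h =>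
      sl2_neg_ne_self h2 (1 : SL₂) (congrArg Subtype.val h).symm
    have hS : S = ({e.symm 1, e.symm ⟨-1, hC.neg_one_mem⟩} : Finset (C →* ℂˣ))ᶜ := by
      ext θ
      rw [hiff, Finset.mem_compl, Finset.mem_insert, Finset.mem_singleton,
        MulEquiv.eq_symm_apply, MulEquiv.eq_symm_apply]
    rw [hS, Finset.card_compl, Finset.card_pair (fun h => hne (e.symm.injective h)),
      ← Nat.card_eq_fintype_card, Nat.card_congr e.toEquiv, hC.ns_card]
    have := Fintype.one_lt_card (α := F)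
    omega
  have himg : S.image f ⊆ T.image Subtype.val := by
    intro φ hφ
    obtain ⟨θ, hθ, rfl⟩ := Finset.mem_image.1 hφ
    exact Finset.mem_image.2 ⟨_, hnot _ θ (hαf θ) (Finset.mem_filter.1 hθ).2, rfl⟩
  have hfib : ∀ φ ∈ S.image f, (S.filter fun θ => f θ = φ).card ≤ 2 := by
    intro φ hφ
    obtain ⟨θ, hθ, rfl⟩ := Finset.mem_image.1 hφ
    refine le_trans (Finset.card_le_card (t := {θ, θ⁻¹}) fun η hη => ?_) Finset.card_le_two
    obtain ⟨-, he⟩ := Finset.mem_filter.1 hη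
    rw [Finset.mem_insert, Finset.mem_singleton]
    by_contra hc
    rw [not_or] at hc
    have hcc := classInner_cusp_cusp h2 hC (hαf θ) (hαf η)
    rw [if_neg (Ne.symm hc.1), if_neg (Ne.symm hc.2), add_zero] at hcc
    have h1 := classInner_cusp_cusp h2 hC (hαf θ) (hαf θ)
    rw [if_pos rfl, if_neg (ne_inv_of_exists h2 hC (Finset.mem_filter.1 hθ).2), add_zero] at h1
    change cusp (αf η) η = cusp (αf θ) θ at he
    rw [he, h1] at hcc
    exact one_ne_zero hcc
  have hle := Finset.card_le_mul_card_image S 2 hfib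
  have hTc : (T.image Subtype.val).card = k := by
    rw [Finset.card_image_of_injective _ Subtype.val_injective, hT]
  have hall : S.image f = T.image Subtype.val :=
    Finset.eq_of_subset_of_card_le himg (by omega)
  have hmem : χ ∈ S.image f := hall ▸ Finset.mem_image.2 ⟨_, h, rfl⟩
  obtain ⟨θ, hθ, rfl⟩ := Finset.mem_image.1 hmem
  exact ⟨αf θ, θ, hαf θ, (Finset.mem_filter.1 hθ).2, rfl⟩

/-- The characters of degree `(q - 1)/2` on a non-split torus. -/
lemma half_cusp_apply (h2 : (2 : F) ≠ 0) (hC : IsNonsplit C) (h5 : 5 ≤ q) {χ : SL₂ → ℂ}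
    (hχ : Cfsg.IsIrrCharacter SL₂ χ) (hd : χ 1 = (((q - 1) / 2 : ℕ) : ℂ))
    {θ : C →* ℂˣ} (hθ1 : ∃ c, θ c ≠ 1) (hθ2 : ∀ c, θ c ^ 2 = 1)
    {g : SL₂} (hg : g ∈ C) (hgn : g ∉ Subgroup.center SL₂) :
    χ g = -(θ ⟨g, hg⟩ : ℂ) := by
  classical
  have hodd : Odd q := Nat.odd_iff.2 (odd_card_of_two_ne_zero h2)
  obtain ⟨k, n, ψ, hk, hk1, hchar, hn, hψ⟩ := Cfsg.Agent.H68.exists_odd_setup (F := F) hodd
  obtain ⟨H₁, H₂, C₁, C₂, T, hH, hC12, -, -, -, hsum, hCconj, ⟨dH₁, -⟩, ⟨dH₂, -⟩, ⟨dC₁, -⟩,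
    ⟨dC₂, -⟩, hTall, -, hcases⟩ := Cfsg.Agent.H68.sl2_odd_table hk hn hψ
  obtain ⟨α, hα⟩ := exists_mulChar_neg_one h2 hC θ
  set V := cusp α θ with hV
  have hinv : θ⁻¹ = θ := by
    ext c
    have h := hθ2 c
    rw [sq] at h
    rw [MonoidHom.inv_apply, inv_eq_of_mul_eq_one_right h]
  have hnorm : Cfsg.classInner V V = 2 := by
    rw [hV, classInner_cusp_cusp h2 hC hα hα, if_pos rfl, if_pos hinv]
    norm_num
  -- orthogonality to the trivial character
  have hone : Cfsg.classInner V (fun _ => (1 : ℂ)) = 0 := by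
    rw [Cfsg.Agent.H26.classInner_comm]
    have hswap : Cfsg.classInner (fun _ : SL₂ => (1 : ℂ)) (sSt * sPS α) =
        Cfsg.classInner sSt (sPS α) := by
      simp only [Cfsg.classInner, Pi.mul_apply, map_mul, conj_sSt, one_mul]
    have hsst : (sSt : SL₂ → ℂ) = sPS (1 : MulChar F ℂ) - fun _ => (1 : ℂ) := by
      funext x; rfl
    have hind : Cfsg.classInner (fun _ : SL₂ => (1 : ℂ))
        (Cfsg.indFun C fun c => (θ c : ℂ)) = 0 := by
      haveI : Fintype C := Fintype.ofFinite C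
      letI : CommGroup C :=
        { (inferInstance : Group C) with
          mul_comm := fun a b => (@IsCyclic.commGroup C _ hC.ns_cyclic).mul_comm a b }
      rw [Cfsg.Agent.H68.classInner_indFun_right C (fun _ _ => rfl), Cfsg.classInner]
      have e := Cfsg.Agent.H68.sum_hom_mul_conj (1 : C →* ℂˣ) θ
      simp only [MonoidHom.one_apply, Units.val_one] at e
      rw [e, if_neg, mul_zero]
      intro h
      obtain ⟨c, hc⟩ := hθ1
      exact hc (DFunLike.congr_fun h c).symm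
    rw [hV, cusp, Cfsg.Agent.H26.classInner_sub_right, Cfsg.Agent.H26.classInner_sub_right, hswap,
      hind, Cfsg.Agent.H68.classInner_one_sPS, hsst, Cfsg.Agent.H26.classInner_sub_left,
      Cfsg.Agent.H68.classInner_sPS, Cfsg.Agent.H68.classInner_one_sPS]
    by_cases h : α = 1
    · simp [h]
    · simp [h, Ne.symm h]
  have hcoef : Cfsg.classInner V C₁.1 + Cfsg.classInner V C₂.1 = 2 := by
    have hexp := congrFun
      (Cfsg.Agent.H26.class_function_expansion V (isClassFunction_cusp α θ)) 1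
    simp only [Finset.sum_apply, Pi.smul_apply, smul_eq_mul] at hexp
    have hne : H₁ ≠ C₁ ∧ H₁ ≠ C₂ ∧ H₂ ≠ C₁ ∧ H₂ ≠ C₂ := by
      refine ⟨?_, ?_, ?_, ?_⟩ <;> intro h <;>
        first
          | (rw [h, dC₁] at dH₁; exact one_ne_zero (by linear_combination -dH₁ : (1 : ℂ) = 0))
          | (rw [h, dC₂] at dH₁; exact one_ne_zero (by linear_combination -dH₁ : (1 : ℂ) = 0))
          | (rw [h, dC₁] at dH₂; exact one_ne_zero (by linear_combination -dH₂ : (1 : ℂ) = 0))
          | (rw [h, dC₂] at dH₂; exact one_ne_zero (by linear_combination -dH₂ : (1 : ℂ) = 0))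
    rw [← Finset.sum_subset (Finset.subset_univ ({H₁, H₂, C₁, C₂} : Finset _))] at hexp
    · rw [Finset.sum_insert (by simp [hH, hne.1, hne.2.1]),
        Finset.sum_insert (by simp [hne.2.2.1, hne.2.2.2]), Finset.sum_pair hC12, dH₁, dH₂, dC₁,
        dC₂, hV, cusp_one h2 hC hα, hk] at hexp
      have hh := classInner_cusp_sPS h2 hC hα (Cfsg.Agent.H68.qchar F)
      rw [hsum, Cfsg.Agent.H26.classInner_add_right] at hh
      rw [hV]
      push_cast at hexp
      have hk0 : (k : ℂ) ≠ 0 := Nat.cast_ne_zero.2 (by omega)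
      refine mul_left_cancel₀ hk0 ?_
      linear_combination -hexp - ((k : ℂ) + 1) * hh
    · intro φ _ hφ
      simp only [Finset.mem_insert, Finset.mem_singleton, not_or] at hφ
      refine mul_eq_zero_of_left ?_ _
      have hps := classInner_cusp_sPS h2 hC hα
      rcases hcases φ with h | h | h | h | h | h | h | h
      · rw [h]; exact hone
      · have := hps 1
        rw [Cfsg.Agent.H68.sPS_one_one, Cfsg.Agent.H26.classInner_add_right, hone, zero_add] at this
        rw [h]; exact this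
      · obtain ⟨β, -, e⟩ := Cfsg.Agent.H68.mem_sPSSet.1 h
        rw [e]; exact hps β
      · exact absurd h hφ.1
      · exact absurd h hφ.2.1
      · exact absurd h hφ.2.2.1
      · exact absurd h hφ.2.2.2
      · have hdeg : φ.1 1 = (q : ℂ) - 1 := by
          rw [(hTall φ h).1, hk]; push_cast; ring
        rcases exists_cusp_of_degree h2 hC φ.2 hdeg with ⟨β, η, hβ, ⟨c, hc⟩, e⟩ | ⟨h3, -⟩
        · rw [e, hV, classInner_cusp_cusp h2 hC hα hβ, if_neg, if_neg, add_zero]
          · rintro rfl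
            rw [hinv] at hc
            exact hc (hθ2 c)
          · rintro rfl
            exact hc (hθ2 c)
        · omega
  have hVeq : V = C₁.1 + C₂.1 := by
    refine sub_eq_zero.1 (eq_zero_of_classInner_self ?_)
    have hc' : Cfsg.classInner C₁.1 V + Cfsg.classInner C₂.1 V = 2 := by
      have h := congrArg (starRingEnd ℂ) hcoef
      rw [map_add, ← Cfsg.Agent.H26.classInner_comm, ← Cfsg.Agent.H26.classInner_comm] at h
      rw [h]; exact map_ofNat _ 2
    simp only [Cfsg.Agent.H26.classInner_sub_left, Cfsg.Agent.H26.classInner_sub_right,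
      Cfsg.Agent.H26.classInner_add_left, Cfsg.Agent.H26.classInner_add_right,
      Cfsg.Agent.H26.classInner_irr, hnorm, if_pos, if_neg hC12, if_neg hC12.symm]
    linear_combination -hcoef - hc'
  have he := (rootCount_zero_iff_no_eigenvector g).1 (hC.noncentral hg hgn).2.1
  have heq : C₂.1 g = C₁.1 g := by
    rw [hCconj]
    exact Cfsg.Agent.H26.irr_eq_of_isConj C₁ (Cfsg.Agent.H68.isConj_slConj_of_no_eigen n he)
  have hval := congrFun hVeq g
  rw [Pi.add_apply, hV, cusp_apply_torus h2 hC hg hgn, heq] at hval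
  have hθinv : (θ ⟨g, hg⟩)⁻¹ = θ ⟨g, hg⟩ := DFunLike.congr_fun hinv ⟨g, hg⟩
  rw [hθinv] at hval
  have hC1 : C₁.1 g = -(θ ⟨g, hg⟩ : ℂ) := by linear_combination -(1 / 2 : ℂ) * hval
  rw [hk, show (2 * k + 1 - 1) / 2 = k by omega] at hd
  rcases hcases ⟨χ, hχ⟩ with h | h | h | h | h | h | h | h
  · exfalso
    rw [show χ = (Cfsg.Agent.H68.sTriv F).1 from congrArg Subtype.val h] at hd
    change (1 : ℂ) = _ at hd
    have := Nat.cast_injective (show ((1 : ℕ) : ℂ) = k by simpa using hd)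
    omega
  · exfalso
    rw [show χ = (Cfsg.Agent.H68.sStI F).1 from congrArg Subtype.val h] at hd
    change (sSt : SL₂ → ℂ) 1 = _ at hd
    rw [Cfsg.Agent.H68.sSt_one, hk] at hd
    have := Nat.cast_injective hd
    omega
  · exfalso
    obtain ⟨β, -, e⟩ := Cfsg.Agent.H68.mem_sPSSet.1 h
    rw [show χ = sPS β from e, Cfsg.Agent.H68.sPS_one, hk] at hd
    have := Nat.cast_injective (show ((2 * k + 1 + 1 : ℕ) : ℂ) = k by push_cast at hd ⊢; exact hd)
    omega
  · exfalso
    rw [show χ = H₁.1 from congrArg Subtype.val h, dH₁] at hd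
    exact one_ne_zero (by linear_combination hd : (1 : ℂ) = 0)
  · exfalso
    rw [show χ = H₂.1 from congrArg Subtype.val h, dH₂] at hd
    exact one_ne_zero (by linear_combination hd : (1 : ℂ) = 0)
  · rw [show χ = C₁.1 from congrArg Subtype.val h, hC1]
  · rw [show χ = C₂.1 from congrArg Subtype.val h, heq, hC1]
  · exfalso
    have h1 := (hTall _ h).1
    rw [show (⟨χ, hχ⟩ : Cfsg.IrrCharacter SL₂).1 1 = χ 1 from rfl, hd] at h1
    have := Nat.cast_injective (show ((k : ℕ) : ℂ) = ((2 * k : ℕ) : ℂ) by push_cast; exact h1)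
    omega

end Cfsg.Agent.H69
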